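import Cfsg.Agent.Lib.LeechP.Base
import Cfsg.Agent.Lib.Leech.CertC100

/-!
# `HS` on 100 points: the group, letters and words
-/

set_option autoImplicit false
set_option maxRecDepth 100000

namespace Cfsg.Agent.Lib.LeechP.HS

open Cfsg Cfsg.Agent.Lib.Golay.Core Cfsg.Agent.Lib.Leech.Basic Cfsg.Agent.Lib.Leech.Lat
  Cfsg.Agent.Lib.Leech.Vec Cfsg.Agent.Lib.Leech.Reach Cfsg.Agent.Lib.Leech.Word
  Cfsg.Agent.Lib.Leech.Cert Cfsg.Agent.Lib.Leech.Packed Cfsg.Agent.Lib.PermComp.Core
  Cfsg.Agent.Lib.Leech.ConfigB Cfsg.Agent.Lib.Leech.ConfigH Cfsg.Agent.Lib.Leech.CertC100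

/-- The numbering of the 100 vectors. -/
theorem num : Num R conds e0.1 100 :=
  Num.of_chunk (root := root) (tab := tab) (NT := NT) (words := words) hR ok0 cover

/-- The second vector. -/
abbrev ww : L := -(Spor.leechV + Spor.leechU')

theorem vw : Spor.leechV + ww = -Spor.leechU' := by
  simp [ww]

theorem sq_v : sqNorm (Spor.leechV : GolayPt → ℤ) = 48 := by
  show sqNorm Spor.vecV = 48
  decide

theorem sq_w : sqNorm (ww : GolayPt → ℤ) = 48 := by
  show sqNorm (-(Spor.vecV + Spor.vecU')) = 48
  decide

theorem dot_vw : dotInt (Spor.leechV : GolayPt → ℤ) (ww : GolayPt → ℤ) = -32 := by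
  show dotInt Spor.vecV (-(Spor.vecV + Spor.vecU')) = -32
  decide

theorem mem_HS_iff (g : Co0) :
    (g : Equiv.Perm L) ∈ Spor.HS ↔ g • (Spor.leechV + ww) = Spor.leechV + ww ∧ g • Spor.leechV = Spor.leechV := by
  have h1 : (g : Equiv.Perm L) ∈ Spor.HS ↔
      ((g : Equiv.Perm L) ∈ Co0 ∧ (g : Equiv.Perm L) • Spor.leechV = Spor.leechV) ∧
        (g : Equiv.Perm L) • Spor.leechU' = Spor.leechU' := Iff.rfl
  rw [h1, vw]
  have h2 : g • (-Spor.leechU') = -(g • Spor.leechU') := Cfsg.Agent.Lib.Leech.Lat.smul_neg g _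
  rw [h2]
  constructor
  · rintro ⟨⟨-, h3⟩, h4⟩
    refine ⟨?_, h3⟩
    show -((g : Equiv.Perm L) • Spor.leechU') = _
    rw [h4]
  · rintro ⟨h4, h5⟩
    exact ⟨⟨g.2, h5⟩, neg_injective h4⟩

theorem le_Co0 : Spor.HS ≤ Co0 := fun _ h => h.1.1

/-- `HS` is the stabiliser of the two packed vectors. -/
theorem equiv_fix : Nonempty (Spor.HS ≃* FixG R) := by
  obtain ⟨t, ht⟩ := exists_to_pair sq_v sq_w dot_vw
  exact conj_equiv t le_Co0 fun g => by
    rw [mem_HS_iff]
    exact (mem_FixG_two ht g).symm

theorem equiv_HH : Nonempty (Spor.HS ≃* Cfsg.Agent.Lib.Leech.SimpleHS.HH Spor.leechV ww) := by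
  refine conj_equiv 1 le_Co0 fun g => ?_
  rw [mem_HS_iff, one_mul, inv_one, mul_one]
  show _ ↔ g • Spor.leechV = Spor.leechV ∧ g • ww = ww
  constructor
  · rintro ⟨h1, h2⟩
    refine ⟨h2, ?_⟩
    rw [Cfsg.Agent.Lib.Leech.Lat.smul_add, h2] at h1
    exact add_left_cancel h1
  · rintro ⟨h1, h2⟩
    refine ⟨?_, h1⟩
    rw [Cfsg.Agent.Lib.Leech.Lat.smul_add, h1, h2]

theorem isHS_HH : IsHS (Cfsg.Agent.Lib.Leech.SimpleHS.HH Spor.leechV ww) :=
  Cfsg.Agent.Lib.Leech.SimpleHS.isHS sq_v sq_w dot_vw

/-- `HS` is simple, of the right order. -/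
theorem simple_HS : IsSimpleGroup Spor.HS ∧ Nat.card Spor.HS = 44352000 := by
  obtain ⟨e⟩ := equiv_HH
  have h := isHS_HH
  have hc : Nat.card Spor.HS = 44352000 := (Nat.card_congr e.toEquiv).trans h.2
  have : Finite Spor.HS := Nat.finite_of_card_ne_zero (by rw [hc]; norm_num)
  have : Nontrivial Spor.HS := by
    rw [← Finite.one_lt_card_iff_nontrivial, hc]
    norm_num
  have := h.1
  exact ⟨IsSimpleGroup.isSimpleGroup_of_surjective e.symm.toMonoidHom e.symm.surjective, hc⟩

/-- A signed permutation of order 11. -/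
def c0 : ℕ := nat_lit 1635736013787435186532558958537570784432246406747074518198108490485022286515498322722341331181329302119139006111813288050388234552927097185090400540429571309448899256470143848088717883619811024432439580479434728451540179622082488833155079226122789946137052874625716590595

/-- An element of order 7 given by a word. -/
def c1 : ℕ := nat_lit 992942005574697566224904286889922678467684532919113405919537143966229985306173792213163524940591872814555714997367629569652573965726485871870566417899532105308110860232241294729269510999234689247538285186830281554325880007884812503613895819323115165872280737124070982685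

/-- The inverse of `c0`. -/
def d0 : ℕ := nat_lit 1635641858194725481707079204568205012526901065404827942590181678308286424550515035085986603029254965307904431088374972818588566503151076925729843356470559598971160364240726347493059534784830304518516391815001998653843516647133153985557368708368011517860562844892753038852

/-- The inverse of `c1`. -/
def d1 : ℕ := nat_lit 1256865763323848528549776484213724178001967622217935808121739552110379488182934539116170207032191163106866289700185434468565261240095951034629240262731741493788345610713951086429734868370525392694220286902638745538014454637742327096155396096461730259837252878615366092822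

/-- The identity. -/
def idc : ℕ := nat_lit 1637577291207740992564958929498998063921351314035428207545729457117053282273863668787531919123765722172680913073641208519103416322095693932448498027656645758350586314858884222896069792392955651976846895920930915490614111022780458423143711754463369320592539258379357913600

/-- The letters. -/
def T4 : List ℕ := [c0, c1, d0, d1]

local notation "RR" => Rep 9 511 (Equiv.refl (Fin 100))

theorem hm9 : (511 : ℕ) = 2 ^ 9 - 1 := by norm_num

theorem chk_id : Cfsg.Agent.Lib.PermComp.Core.allL (fun i => Nat.beq (app 9 511 idc i) i) (List.range 100) = true := by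
  decide +kernel

theorem hid9 : ∀ i < 100, app 9 511 idc i = i := fun i hi =>
  Nat.eq_of_beq_eq_true ((Cfsg.Agent.Lib.PermComp.Core.allL_eq_true _ _).1 chk_id i (List.mem_range.2 hi))

theorem chk_c0 : monOKs e0.1 100 9 511 c0 (tabP tab 0) (tabC tab 0) = true := by decide +kernel

theorem chk_c1 : wordOK e0.1 100 9 511 c1 (words.getD 0 []) = true := by decide +kernel

theorem chk_d0 : comp 100 9 511 d0 c0 = idc := by decide +kernel

theorem chk_d1 : comp 100 9 511 d1 c1 = idc := by decide +kernel

/-- The group, as a group of permutations of the 100 vectors. -/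
noncomputable def PP : Subgroup (Equiv.Perm (Fin 100)) := num.phi.range

theorem rep_c0 : ∃ g ∈ PP, RR c0 g :=
  ⟨_, ⟨_, rfl⟩, num.rep_mon (hv := (tab_in 0 (by decide +kernel)).1) (hu := (tab_in 0 (by decide +kernel)).2) chk_c0⟩

theorem rep_c1 : ∃ g ∈ PP, RR c1 g :=
  ⟨_, ⟨_, rfl⟩, num.rep_word (hu := words_in _ (by simp [words])) chk_c1⟩

theorem rep_d0 : ∃ g ∈ PP, RR d0 g := by
  obtain ⟨g, hg, hr⟩ := rep_c0
  exact ⟨g⁻¹, PP.inv_mem hg, hr.inv hm9 hid9 chk_d0⟩

theorem rep_d1 : ∃ g ∈ PP, RR d1 g := by
  obtain ⟨g, hg, hr⟩ := rep_c1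
  exact ⟨g⁻¹, PP.inv_mem hg, hr.inv hm9 hid9 chk_d1⟩

theorem rep_T4 (a : ℕ) (ha : a < 4) : ∃ g ∈ PP, RR (nthN T4 a) g := by
  interval_cases a
  · exact rep_c0
  · exact rep_c1
  · exact rep_d0
  · exact rep_d1

/-- The code of a word in the letters. -/
noncomputable def wc : List ℕ → ℕ
  | [] => idc
  | a :: u => force (wc u) fun q => comp 100 9 511 (nthN T4 a) q

theorem wc_rep (u : List ℕ) (hu : u.all (fun a => Nat.blt a 4) = true) : ∃ g ∈ PP, RR (wc u) g := by
  induction u with
  | nil => exact ⟨1, one_mem _, rep_one hid9⟩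
  | cons a u ih =>
    simp only [List.all_cons, Bool.and_eq_true] at hu
    obtain ⟨g, hg, hr⟩ := ih hu.2
    obtain ⟨l, hl, hlr⟩ := rep_T4 a (Nat.le_of_ble_eq_true hu.1)
    refine ⟨l * g, mul_mem hl hg, ?_⟩
    have : wc (a :: u) = comp 100 9 511 (nthN T4 a) (wc u) := by
      show force _ _ = _
      rw [force_eq]
    rw [this]
    exact hlr.comp hm9 hr

theorem rep_of_words {l : List ℕ} {W : List (List ℕ)} (h : l = W.map wc)
    (hW : W.all (fun u => u.all (fun a => Nat.blt a 4)) = true) : ∀ c ∈ l, ∃ g ∈ PP, RR c g := by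
  subst h
  intro c hc
  obtain ⟨u, hu, rfl⟩ := List.mem_map.1 hc
  exact wc_rep u (List.all_eq_true.1 hW u hu)

/-- The action is not trivial. -/
theorem not_trivial : num.phi ≠ 1 := by
  intro h
  obtain ⟨g, ⟨x, rfl⟩, hr⟩ := rep_c0
  rw [h] at hr
  have h1 := hr (0 : Fin 100)
  have h2 : app 9 511 c0 0 = 0 := h1
  exact absurd h2 (by decide +kernel)

theorem simple_fix : IsSimpleGroup (FixG R) ∧ Nat.card (FixG R) = 44352000 := by
  obtain ⟨e⟩ := equiv_fix
  obtain ⟨h1, h2⟩ := simple_HS
  have hc : Nat.card (FixG R) = 44352000 := (Nat.card_congr e.toEquiv).symm.trans h2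
  have : Finite (FixG R) := Nat.finite_of_card_ne_zero (by rw [hc]; norm_num)
  have : Nontrivial (FixG R) := by
    rw [← Finite.one_lt_card_iff_nontrivial, hc]
    norm_num
  exact ⟨IsSimpleGroup.isSimpleGroup_of_surjective e.toMonoidHom e.surjective, hc⟩

theorem phi_inj : Function.Injective num.phi := by
  have := simple_fix.1
  rcases (MonoidHom.normal_ker num.phi).eq_bot_or_eq_top with h | h
  · exact (MonoidHom.ker_eq_bot_iff _).1 h
  · exfalso
    apply not_trivial
    ext g
    have h1 : g ∈ num.phi.ker := by rw [h]; trivial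
    rw [MonoidHom.mem_ker.1 h1]
    rfl

/-- `HS` is the group of permutations. -/
theorem iso_PP : Nonempty (Spor.HS ≃* PP) := by
  obtain ⟨e⟩ := equiv_fix
  exact ⟨e.trans (MonoidHom.ofInjective phi_inj)⟩

theorem card_PP : Nat.card PP = 44352000 := by
  obtain ⟨e⟩ := iso_PP
  exact (Nat.card_congr e.toEquiv).symm.trans simple_HS.2

theorem simple_PP : IsSimpleGroup PP := by
  obtain ⟨e⟩ := iso_PP
  have := simple_HS.1
  have : Finite PP := Nat.finite_of_card_ne_zero (by rw [card_PP]; norm_num)
  have : Nontrivial PP := by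
    rw [← Finite.one_lt_card_iff_nontrivial, card_PP]
    norm_num
  exact IsSimpleGroup.isSimpleGroup_of_surjective e.toMonoidHom e.surjective

end Cfsg.Agent.Lib.LeechP.HS
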